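import Mathlib
import Cfsg.Agent.H3.FrobCompl
import Cfsg.Agent.H9.FpfNilpotent

/-!
# Fixed-point-free representations of Frobenius complements in characteristic zero
-/

set_option autoImplicit false

namespace Cfsg.Agent.H3

open MonoidAlgebra
open scoped IsMulCommutative

variable {G : Type*} [Group G]

/-- The norm element of the cyclic group generated by `g`. -/
noncomputable def normElt (k : Type*) [CommRing k] (g : G) : MonoidAlgebra k G :=
  ∑ i ∈ Finset.range (orderOf g), single (g ^ i) 1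

/-- The ideal generated by the norm elements of the non-trivial cyclic subgroups. -/
noncomputable def normIdeal (k : Type*) [CommRing k] (G : Type*) [Group G] :
    Ideal (MonoidAlgebra k G) := Ideal.span {x | ∃ g : G, g ≠ 1 ∧ x = normElt k g}

section

variable {k k' : Type*} [CommRing k] [CommRing k']

theorem single_mul_normElt (g : G) : single g (1 : k) * normElt k g = normElt k g := by
  have h1 := Finset.sum_range_succ (fun i => single (g ^ i) (1 : k)) (orderOf g)
  rw [Finset.sum_range_succ', pow_orderOf_eq_one, pow_zero, add_left_inj] at h1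
  rw [normElt, Finset.mul_sum, ← h1]
  simp [pow_succ']

theorem normElt_mul_single (g b : G) :
    normElt k g * single b 1 = single b 1 * normElt k (b⁻¹ * g * b) := by
  have := orderOf_conj' b⁻¹ g
  rw [inv_inv] at this
  rw [normElt, normElt, this, Finset.sum_mul, Finset.mul_sum]
  refine Finset.sum_congr rfl fun i _ => ?_
  have := conj_pow (a := b⁻¹) (b := g) (i := i)
  rw [inv_inv] at this
  rw [this, single_mul_single, single_mul_single]
  congr 1
  group

omit [Group G] in
theorem coeff_nsmul_int (n : ℕ) (x : MonoidAlgebra ℤ G) (g : G) :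
    (n • x).coeff g = n * x.coeff g := by rw [coeff_smul_apply, nsmul_eq_mul]

theorem conj_ne_one' {g : G} (hg : g ≠ 1) (b : G) : b⁻¹ * g * b ≠ 1 := fun h => hg (by
  calc g = b * (b⁻¹ * g * b) * b⁻¹ := by group
    _ = 1 := by rw [h]; group)

theorem normElt_mul_of_fix {g : G} {x : MonoidAlgebra k G} (h : single g (1 : k) * x = x) :
    normElt k g * x = orderOf g • x := by
  have : ∀ i : ℕ, single (g ^ i) (1 : k) * x = x := fun i => by
    induction i with
    | zero => rw [pow_zero, ← one_def, one_mul]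
    | succ i ih => rw [pow_succ, ← mul_one (1 : k), ← single_mul_single, mul_assoc, h, ih]
  rw [normElt, Finset.sum_mul]
  simp [this]

theorem map_normElt (f : k →+* k') (g : G) : mapRingHom G f (normElt k g) = normElt k' g := by
  simp [normElt, mapRingHom_single]

theorem normElt_mem {g : G} (hg : g ≠ 1) : normElt k g ∈ normIdeal k G :=
  Ideal.subset_span ⟨g, hg, rfl⟩

theorem normIdeal_mul_mem {x : MonoidAlgebra k G} (hx : x ∈ normIdeal k G)
    (b : MonoidAlgebra k G) : x * b ∈ normIdeal k G := by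
  induction hx using Submodule.span_induction with
  | mem x hx =>
    obtain ⟨g, hg, rfl⟩ := hx
    induction b using MonoidAlgebra.induction_linear with
    | zero => simp
    | add y z hy hz => rw [mul_add]; exact add_mem hy hz
    | single b r =>
      rw [show single b r = r • single b (1 : k) by simp, mul_smul_comm, normElt_mul_single,
        ← smul_mul_assoc]
      exact Ideal.mul_mem_left _ _ (normElt_mem (conj_ne_one' hg b))
  | zero => simp
  | add y z _ _ hy hz => rw [add_mul]; exact add_mem hy hz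
  | smul a y _ hy => rw [smul_eq_mul, mul_assoc]; exact Ideal.mul_mem_left _ _ hy

theorem exists_lift_normIdeal (f : k →+* k') (hf : Function.Surjective f)
    {x : MonoidAlgebra k' G} (hx : x ∈ normIdeal k' G) :
    ∃ X ∈ normIdeal k G, mapRingHom G f X = x := by
  induction hx using Submodule.span_induction with
  | mem x hx =>
    obtain ⟨g, hg, rfl⟩ := hx
    exact ⟨_, normElt_mem hg, map_normElt f g⟩
  | zero => exact ⟨0, zero_mem _, map_zero _⟩
  | add y z _ _ hy hz =>
    obtain ⟨Y, h1, rfl⟩ := hy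
    obtain ⟨Z, h2, rfl⟩ := hz
    exact ⟨Y + Z, add_mem h1 h2, map_add _ _ _⟩
  | smul a y _ hy =>
    obtain ⟨Y, h1, rfl⟩ := hy
    obtain ⟨A, rfl⟩ := map_surjective (M := G) (f : k →+ k') hf a
    exact ⟨A * Y, Ideal.mul_mem_left _ _ h1, map_mul _ _ _⟩

end

theorem exists_idem_normIdeal (k : Type*) [Field k] [Finite G] [NeZero (Nat.card G : k)] :
    ∃ f : MonoidAlgebra k G, f * f = f ∧ (∀ x ∈ normIdeal k G, x * f = 0) ∧
      1 - f ∈ normIdeal k G := by
  obtain ⟨J, hJ⟩ := MonoidAlgebra.Submodule.exists_isCompl (normIdeal k G)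
  obtain ⟨e, he, f, hf, hef⟩ := Submodule.mem_sup.mp (hJ.sup_eq_top.ge (Submodule.mem_top (x := 1)))
  have key : ∀ x ∈ normIdeal k G, x * f = 0 := fun x hx =>
    (Submodule.disjoint_def.mp hJ.disjoint) _ (normIdeal_mul_mem hx f) (J.smul_mem x hf)
  refine ⟨f, ?_, key, by rwa [← hef, add_sub_cancel_right]⟩
  rw [show f * f = (e + f) * f by rw [add_mul, key e he, zero_add], hef, one_mul]

theorem exists_int_multiple (x : MonoidAlgebra ℚ G) : ∃ n : ℕ, 0 < n ∧
    ∃ X : MonoidAlgebra ℤ G, mapRingHom G (Int.castRingHom ℚ) X = n • x := by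
  induction x using MonoidAlgebra.induction_linear with
  | zero => exact ⟨1, one_pos, 0, by simp⟩
  | add y z hy hz =>
    obtain ⟨m, hm, Y, h1⟩ := hy
    obtain ⟨n, hn, Z, h2⟩ := hz
    exact ⟨m * n, Nat.mul_pos hm hn, n • Y + m • Z, by
      rw [map_add, map_nsmul, map_nsmul, h1, h2, smul_add, smul_smul, smul_smul, mul_comm n]⟩
  | single b r =>
    exact ⟨r.den, r.den_pos, single b r.num, by
      rw [mapRingHom_single, smul_single, nsmul_eq_mul, Rat.den_mul_eq_num]; rfl⟩

theorem exists_int_multiple_mem {x : MonoidAlgebra ℚ G} (hx : x ∈ normIdeal ℚ G) :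
    ∃ n : ℕ, 0 < n ∧ ∃ X ∈ normIdeal ℤ G, mapRingHom G (Int.castRingHom ℚ) X = n • x := by
  induction hx using Submodule.span_induction with
  | mem x hx =>
    obtain ⟨g, hg, rfl⟩ := hx
    exact ⟨1, one_pos, _, normElt_mem hg, by rw [map_normElt, one_smul]⟩
  | zero => exact ⟨1, one_pos, 0, zero_mem _, by simp⟩
  | add y z _ _ hy hz =>
    obtain ⟨m, hm, Y, hY, h1⟩ := hy
    obtain ⟨n, hn, Z, hZ, h2⟩ := hz
    exact ⟨m * n, Nat.mul_pos hm hn, n • Y + m • Z, add_mem (nsmul_mem hY _) (nsmul_mem hZ _), by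
      rw [map_add, map_nsmul, map_nsmul, h1, h2, smul_add, smul_smul, smul_smul, mul_comm n]⟩
  | smul a y _ hy =>
    obtain ⟨m, hm, Y, hY, h1⟩ := hy
    obtain ⟨n, hn, A, h2⟩ := exists_int_multiple a
    exact ⟨n * m, Nat.mul_pos hn hm, A * Y, Ideal.mul_mem_left _ _ hY, by
      rw [map_mul, h1, h2, smul_eq_mul, smul_mul_smul_comm]⟩

theorem exists_eq_nsmul_of_map_eq_zero {q : ℕ} {X : MonoidAlgebra ℤ G}
    (h : mapRingHom G (Int.castRingHom (ZMod q)) X = 0) : ∃ Y, X = q • Y := by
  refine ⟨.ofCoeff (X.coeff.mapRange (· / q) (by simp)), ?_⟩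
  ext g
  have := congrArg (fun y => y.coeff g) h
  simp only [coeff_mapRingHom, eq_intCast, coeff_zero, Finsupp.coe_zero, Pi.zero_apply,
    ZMod.intCast_zmod_eq_zero_iff_dvd] at this
  rw [coeff_nsmul_int, Finsupp.mapRange_apply, Int.mul_ediv_cancel' this]

/-- A group acting fixed-point-freely on a finite abelian group has a rational fixed-point-free
module. -/
theorem exists_ne_zero_normElt_mul [Finite G] {V : Type*} [AddCommGroup V] (ρ : G →* Module.End ℤ V)
    (hf : ∀ g, g ≠ 1 → ∀ v, ρ g v = v → v = 0) {q : ℕ} (hq : q.Prime) (hqG : ¬ q ∣ Nat.card G)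
    {v : V} (hv : v ≠ 0) (hqv : q • v = 0) :
    ∃ φ : MonoidAlgebra ℚ G, φ ≠ 0 ∧ ∀ g, g ≠ 1 → normElt ℚ g * φ = 0 := by
  have : Fact q.Prime := ⟨hq⟩
  have : NeZero (Nat.card G : ℚ) := ⟨by exact_mod_cast Nat.card_pos.ne'⟩
  have : NeZero (Nat.card G : ZMod q) := ⟨(ZMod.natCast_eq_zero_iff _ _).not.mpr hqG⟩
  obtain ⟨φ, -, h1, h2⟩ := exists_idem_normIdeal (G := G) ℚ
  refine ⟨φ, ?_, fun g hg => h1 _ (normElt_mem hg)⟩
  rintro rfl
  obtain ⟨n, hn, X, hX, h3⟩ := exists_int_multiple_mem h2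
  obtain rfl : X = n • 1 := by
    ext g
    have := congrArg (fun y => y.coeff g) h3
    simp only [coeff_mapRingHom, eq_intCast, sub_zero] at this
    apply Int.cast_injective (α := ℚ)
    rw [this]
    classical
    simp [one_def, Finsupp.single_apply]
  obtain ⟨f, hf1, hf2, hf3⟩ := exists_idem_normIdeal (G := G) (ZMod q)
  have hf0 : f ≠ 0 := by
    rintro rfl
    obtain ⟨Y, hY, h4⟩ := exists_lift_normIdeal _ (ZMod.ringHom_surjective (Int.castRingHom _)) hf3
    obtain ⟨W, hW⟩ := exists_eq_nsmul_of_map_eq_zero (q := q) (X := 1 - Y)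
      (by rw [map_sub, h4, map_one, sub_zero, sub_self])
    let ψ := MonoidAlgebra.lift ℤ (Module.End ℤ V) G ρ
    have h5 : normIdeal ℤ G ≤ RingHom.ker ψ := Ideal.span_le.mpr (by
      rintro _ ⟨g, hg, rfl⟩
      refine LinearMap.ext fun w => hf g hg _ ?_
      rw [← Module.End.mul_apply, show ρ g = ψ (single g 1) by simp [ψ], ← map_mul,
        single_mul_normElt])
    have h6 := congrArg (fun x => ψ x v) hW
    have h7 : ψ Y = 0 := h5 hY
    simp only [map_sub, map_one, h7, sub_zero, map_nsmul, Module.End.one_apply,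
      LinearMap.smul_apply] at h6
    exact hv (by rw [h6, ← map_nsmul, hqv, map_zero])
  obtain ⟨F, hF⟩ : ∃ F, mapRingHom G (Int.castRingHom (ZMod q)) F = f :=
    map_surjective (M := G) _ (ZMod.ringHom_surjective (Int.castRingHom _)) f
  have key : ∀ X ∈ normIdeal ℤ G, ∃ Y ∈ normIdeal ℤ G, Nat.card G • (X * F) = q • Y := by
    intro X hX
    induction hX using Submodule.span_induction with
    | mem x hx =>
      obtain ⟨g, hg, rfl⟩ := hx
      obtain ⟨w, hw⟩ := exists_eq_nsmul_of_map_eq_zero (q := q) (X := normElt ℤ g * F)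
        (by rw [map_mul, map_normElt, hF, hf2 _ (normElt_mem hg)])
      obtain ⟨m, hm⟩ := orderOf_dvd_natCard g
      refine ⟨m • (normElt ℤ g * w), nsmul_mem (normIdeal_mul_mem (normElt_mem hg) w) _, ?_⟩
      rw [smul_comm, ← mul_smul_comm q, ← hw, ← mul_assoc,
        normElt_mul_of_fix (single_mul_normElt g), smul_mul_assoc, smul_smul, hm, mul_comm m]
    | zero => exact ⟨0, zero_mem _, by simp⟩
    | add y z _ _ hy hz =>
      obtain ⟨Y, h1, h2⟩ := hy
      obtain ⟨Z, h3, h4⟩ := hz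
      exact ⟨Y + Z, add_mem h1 h3, by rw [add_mul, smul_add, h2, h4, smul_add]⟩
    | smul a y _ hy =>
      obtain ⟨Y, h1, h2⟩ := hy
      exact ⟨a * Y, Ideal.mul_mem_left _ _ h1, by
        rw [smul_eq_mul, mul_assoc, ← mul_smul_comm, h2, mul_smul_comm]⟩
  have key2 : ∀ j : ℕ, ∃ Y ∈ normIdeal ℤ G, (Nat.card G ^ j * n) • F ^ j = q ^ j • Y := fun j => by
    induction j with
    | zero => exact ⟨_, hX, by simp⟩
    | succ j ih =>
      obtain ⟨Y, h1, h2⟩ := ih
      obtain ⟨Z, h3, h4⟩ := key Y h1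
      refine ⟨Z, h3, ?_⟩
      rw [pow_succ q, mul_smul (q ^ j), ← h4, smul_comm, ← smul_mul_assoc, ← h2, smul_mul_assoc, smul_smul,
        pow_succ', pow_succ F, mul_assoc]
  obtain ⟨Y, -, hY⟩ := key2 n
  obtain ⟨x, hx⟩ : ∃ x, f.coeff x ≠ 0 := by
    by_contra h
    push Not at h
    exact hf0 (by ext x; simpa using h x)
  have h4 : ¬ (q : ℤ) ∣ (F ^ n).coeff x := by
    rw [← ZMod.intCast_zmod_eq_zero_iff_dvd]
    have := coeff_mapRingHom (Int.castRingHom (ZMod q)) (F ^ n) x
    rw [map_pow, hF, (show IsIdempotentElem f from hf1).pow_eq hn.ne'] at this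
    exact fun h => hx (this.trans h)
  have h5 := congrArg (fun y => y.coeff x) hY
  simp only [coeff_nsmul_int] at h5
  have h6 : ((q ^ n : ℕ) : ℤ) ∣ _ := ⟨_, h5⟩
  rw [Nat.cast_pow] at h6
  have h7 := (Nat.prime_iff_prime_int.mp hq).pow_dvd_of_dvd_mul_right n h4 h6
  have h8 : q ^ n ∣ Nat.card G ^ n * n := by exact_mod_cast h7
  exact absurd (Nat.le_of_dvd hn ((Nat.Coprime.pow n n
    ((Nat.Prime.coprime_iff_not_dvd hq).mpr hqG)).dvd_of_dvd_mul_left h8))
    (not_le.mpr (Nat.lt_pow_self hq.one_lt))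

/-- A non-zero fixed-point-free module contains an irreducible one; matrix form. -/
theorem exists_fpf_matrix_rep [Finite G] {k : Type*} [Field k] [CharZero k]
    {φ : MonoidAlgebra k G} (h0 : φ ≠ 0) (hφ : ∀ g, g ≠ 1 → normElt k g * φ = 0) :
    ∃ (n : ℕ) (ρ : G →* GL (Fin n) k), 0 < n ∧ Function.Injective ρ ∧
      (∀ W : Submodule k (Fin n → k), (∀ g : G, ∀ w ∈ W,
        ((ρ g : GL (Fin n) k) : Matrix (Fin n) (Fin n) k).mulVec w ∈ W) → W = ⊥ ∨ W = ⊤) ∧
      ∀ g : G, g ≠ 1 → ∀ v : Fin n → k,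
        ((ρ g : GL (Fin n) k) : Matrix (Fin n) (Fin n) k).mulVec v = v → v = 0 := by
  classical
  let S : Set (Submodule k (MonoidAlgebra k G)) := {U | U ≠ ⊥ ∧
    (∀ g, ∀ x ∈ U, single g (1 : k) * x ∈ U) ∧ ∀ g, g ≠ 1 → ∀ x ∈ U, normElt k g * x = 0}
  let U₀ : Submodule k (MonoidAlgebra k G) :=
    { carrier := {x | ∀ g, g ≠ 1 → normElt k g * x = 0}
      add_mem' := fun hx hy g hg => by rw [mul_add, hx g hg, hy g hg, add_zero]
      zero_mem' := fun g _ => mul_zero _
      smul_mem' := fun c x hx g hg => by rw [mul_smul_comm, hx g hg, smul_zero] }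
  obtain ⟨U, ⟨hU0, hU1, hU2⟩, hmin⟩ := (wellFounded_lt (α := Submodule k (MonoidAlgebra k G))).has_min
    S ⟨U₀, fun h => h0 (h.le hφ), fun b x hx g hg => by
      rw [← mul_assoc, normElt_mul_single, mul_assoc, hx _ (conj_ne_one' hg b),
        mul_zero], fun g hg x hx => hx g hg⟩
  let σ : G →* Module.End k U :=
    { toFun := fun g => (LinearMap.mulLeft k (single g (1 : k))).restrict (hU1 g)
      map_one' := by ext x; simp [← one_def]
      map_mul' := fun g h => by
        refine LinearMap.ext fun x => Subtype.ext ?_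
        change single (g * h) (1 : k) * x.1 = single g 1 * (single h 1 * x.1)
        rw [← mul_assoc, single_mul_single, mul_one] }
  let b := Module.finBasis k U
  let ρ : G →* GL (Fin (Module.finrank k U)) k :=
    ((LinearMap.toMatrixAlgEquiv b).toMonoidHom.comp σ).toHomUnits
  have hρ : ∀ (g : G) (x : U), (ρ g : Matrix _ _ k).mulVec (b.equivFun x) = b.equivFun (σ g x) :=
    fun g x => LinearMap.toMatrix_mulVec_repr b b (σ g) x
  have hfpf : ∀ g : G, g ≠ 1 → ∀ v, (ρ g).1.mulVec v = v → v = 0 := fun g hg v hv => by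
    obtain ⟨x, rfl⟩ := b.equivFun.surjective v
    rw [hρ] at hv
    have h1 := normElt_mul_of_fix (x := x.1) (congrArg Subtype.val (b.equivFun.injective hv))
    rw [hU2 g hg x x.2, ← Nat.cast_smul_eq_nsmul k, eq_comm, smul_eq_zero] at h1
    rw [show x = 0 from Subtype.ext (h1.resolve_left (by exact_mod_cast (orderOf_pos g).ne')),
      map_zero]
  have : Nontrivial U := Submodule.nontrivial_iff_ne_bot.mpr hU0
  have hn : 0 < Module.finrank k U := Module.finrank_pos
  refine ⟨_, ρ, hn, (injective_iff_map_eq_one ρ).mpr fun g hg => ?_, fun W hW => ?_, hfpf⟩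
  · by_contra h1
    have := hfpf g h1 (fun _ => 1) (by rw [hg]; simp)
    exact one_ne_zero (congrFun this ⟨0, hn⟩)
  · refine or_iff_not_imp_left.mpr fun hW0 => ?_
    let W' := (W.comap b.equivFun.toLinearMap).map U.subtype
    have h1 : W' ∈ S := by
      refine ⟨fun h => hW0 (eq_bot_iff.mpr fun w hw => ?_), ?_, ?_⟩
      · obtain ⟨x, rfl⟩ := b.equivFun.surjective w
        have : (x : MonoidAlgebra k G) ∈ W' := ⟨x, hw, rfl⟩
        rw [h, Submodule.mem_bot] at this
        rw [show x = 0 from Subtype.ext this, map_zero]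
        exact zero_mem _
      · rintro g _ ⟨x, hx, rfl⟩
        exact ⟨σ g x, show b.equivFun (σ g x) ∈ W from hρ g x ▸ hW g _ hx, rfl⟩
      · rintro g hg _ ⟨x, -, rfl⟩
        exact hU2 g hg x x.2
    have h2 : W' = U := (eq_or_lt_of_le (Submodule.map_subtype_le U _)).resolve_right (hmin _ h1)
    refine eq_top_iff.mpr fun w _ => ?_
    obtain ⟨x, rfl⟩ := b.equivFun.surjective w
    obtain ⟨y, hy, e⟩ := h2.ge x.2
    rwa [← show y = x from Subtype.ext e]

theorem exists_ne_zero_normElt_mul_of_frobenius [Finite G] {L : Type*} [Group L] [Finite L]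
    {H : Subgroup L} (hH : IsFrobeniusComplement H) (e : G ≃* H) (k : Type*) [Field k]
    [CharZero k] : ∃ φ : MonoidAlgebra k G, φ ≠ 0 ∧ ∀ g, g ≠ 1 → normElt k g * φ = 0 := by
  obtain ⟨K, hN, hK⟩ := exists_frobeniusKernel hH
  obtain ⟨hH1, hH2, hH3⟩ := (isFrobeniusComplement_iff H).mp hH
  have hf : ∀ h ∈ H, h ≠ 1 → ∀ x ∈ K, h * x = x * h → x = 1 := fun h hh h1 x hx hc =>
    eq_one_of_commute_frobKer hH3 hK
      (fun h2 => h1 ((frobKer_inf_eq_bot hK).le ⟨h2, hh⟩)) hx hc
  have := H9.isNilpotent_of_frobenius hH1 (Subgroup.le_normalizer_of_normal)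
    (fun h hh h1 x hx hc => hf h hh h1 x hx hc.symm)
  have : Nontrivial K := (Subgroup.nontrivial_iff_ne_bot K).mpr (frobKer_ne_bot hH2 hK)
  let V := (Subgroup.center K).map K.subtype
  have hV : V.Normal := inferInstance
  obtain ⟨v, hv, hq⟩ := exists_prime_orderOf_mem (H := V)
    (fun h => Group.IsNilpotent.center_ne_bot K
      ((Subgroup.map_eq_bot_iff_of_injective _ K.subtype_injective).mp h))
  let ρ : G →* Module.End ℤ (Additive V) :=
    { toFun := fun g => (conjAddHom (e g : L) (fun v hv => hV.conj_mem v hv _)).toIntLinearMap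
      map_one' := LinearMap.ext fun x => additive_ext (by simp [conjAddHom_coe])
      map_mul' := fun g h => LinearMap.ext fun x => additive_ext (by
        simp [conjAddHom_coe, mul_assoc]) }
  obtain ⟨φ, h0, hφ⟩ := exists_ne_zero_normElt_mul ρ (fun g hg x hx => additive_ext
    (hf _ (e g).2 (by simpa using hg) _ (Subgroup.map_subtype_le _ x.toMul.2)
      (mul_inv_eq_iff_eq_mul.mp (congrArg (fun y => (y.toMul : L)) hx)))) hq
    (fun hd => hq.one_lt.ne' (Nat.eq_one_of_dvd_coprimes (coprime_frobKer_frobCompl hH3 hK)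
      (Subgroup.orderOf_dvd_natCard _ (Subgroup.map_subtype_le _ hv))
      (Nat.card_congr e.toEquiv ▸ hd)))
    (v := Additive.ofMul ⟨v, hv⟩)
    (fun h => ne_one_of_orderOf_prime hq (congrArg (fun y => (y.toMul : L)) h))
    (additive_ext (pow_orderOf_eq_one v))
  refine ⟨mapRingHom G (algebraMap ℚ k) φ, fun h => h0 ?_, fun g hg => by
    rw [← map_normElt (algebraMap ℚ k), ← map_mul, hφ g hg, map_zero]⟩
  ext x
  have := congrArg (fun y => y.coeff x) h
  simpa [coeff_mapRingHom] using this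

end Cfsg.Agent.H3
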