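import Mathlib
import Cfsg.Agent.H3.ZassId
import Cfsg.Agent.H3.FrobCompl
import Cfsg.Agent.H3.SylowTI
import Cfsg.Agent.H9.FpfNilpotent

/-!
# Doubly transitive groups with trivial three-point stabilizers and a regular normal subgroup
-/

set_option autoImplicit false

namespace Cfsg.Agent.H3

open MulAction

theorem card_eq_two_pow_of_ringEquiv {F : Type*} [Field F] [Finite F] (σ : F ≃+* F)
    (h : ∀ x, σ x = x → x = 0 ∨ x = 1) : Nat.card F = 2 ^ orderOf σ := by
  have : Finite (F ≃+* F) := Finite.of_injective _ DFunLike.coe_injective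
  have := Fintype.ofFinite (Subgroup.zpowers σ)
  rw [Module.natCard_eq_pow_finrank (K := FixedPoints.subfield (Subgroup.zpowers σ) F),
    FixedPoints.finrank_eq_card, ← Nat.card_eq_fintype_card, Nat.card_zpowers]
  congr 1
  rw [Nat.card_eq_two_iff]
  refine ⟨0, 1, zero_ne_one, Set.eq_univ_of_forall fun x => ?_⟩
  exact (h x (x.2 ⟨σ, Subgroup.mem_zpowers σ⟩)).imp Subtype.ext Subtype.ext

variable {G Ω : Type*} [Group G] [MulAction G Ω] [Finite G]

theorem Zs.card_eq_two_pow_of_regular [FaithfulSMul G Ω] (Z : Zs G Ω) {a b : Ω} (hab : a ≠ b)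
    {h : G} (hr : (orderOf h).Prime) (ha : h • a = a) (hb : h • b = b) (N : Subgroup G)
    [hN : N.Normal] [IsPretransitive N Ω] (hNr : ∀ a : Ω, stabilizer N a = ⊥) :
    Nat.card Ω = 2 ^ orderOf h := by
  have : Nontrivial Ω := ⟨a, b, hab⟩
  have h1 := ne_one_of_orderOf_prime hr
  obtain ⟨p, hp, hP, hexp, hcomm⟩ := elementary_abelian_of_regular_normal Z.isTwo hNr
  obtain ⟨⟨v, hv⟩, hva⟩ := exists_smul_eq N a b
  change v • a = b at hva
  have hv1 : v ≠ 1 := by rintro rfl; exact hab (by simpa using hva)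
  have hhv : h * v * h⁻¹ = v := (conj_eq_of_regular (hNr a) ha hv hv).mp (by rw [hva, hb])
  have hne : ∀ x ∈ N, x ≠ 1 → x • a ≠ a := fun x hx hx1 h' =>
    hx1 (eq_one_of_regular (hNr a) hx h')
  have hfix : ∀ x ∈ N, h * x * h⁻¹ = x → x = 1 ∨ x = v := fun x hx hc => by
    by_contra hcon
    push Not at hcon
    refine h1 (Z.three h a b (x • a) hab (fun h' => hcon.2 ?_) (hne x hx hcon.1).symm ha hb
      ((conj_eq_of_regular (hNr a) ha hx hx).mpr hc))
    simpa using (conj_eq_of_regular (hNr a) (one_smul G a) hx hv).mp (by rw [one_smul, hva, h'])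
  have hv2 : v * v = 1 := (hfix _ (N.mul_mem hv hv) (by
    calc _ = (h * v * h⁻¹) * (h * v * h⁻¹) := by group
      _ = _ := by rw [hhv])).resolve_right (by simpa using hv1)
  have hN1 : N ≠ ⊥ := fun h0 => hv1 (h0.le hv)
  have hNc : Nat.card N = Nat.card Ω := card_eq_of_regular a (hNr a)
  have hn : ∀ k ∈ Z.root a, ∀ x ∈ N, k * x * k⁻¹ ∈ N := fun k _ x hx => hN.conj_mem x hx k
  have hZ : IsZGroup (Z.root a) := isZGroup_of_fpf_of_odd hn (fun k hk x hx hc =>
    or_iff_not_imp_right.mpr fun hx1 => Z.root_free hk (hne x hx hx1)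
      (by rw [← mul_smul, hc, mul_smul, Z.root_fix hk])) hN1 (by
    have h2 := Subgroup.orderOf_dvd_natCard N hv
    rw [orderOf_eq_prime (p := 2) (by rw [sq, hv2]) hv1, hNc, ← Z.card_root hab] at h2
    exact Nat.odd_iff.mpr (by omega))
  have hnil : Group.IsNilpotent (Z.root a) := H9.isNilpotent_of_fpf hr
    (H9.mem_normalizer_of_conj_mem fun k hk => Z.conj_mem_root_of_fix hk ha) (pow_orderOf_eq_one h)
    (fun k hk hc => (Z.eq_one_of_commute_root hab ha hb hk hc.symm).resolve_left h1)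
  have htr : ∀ x ∈ N, ∀ y ∈ N, x ≠ 1 → y ≠ 1 → ∃ k ∈ Z.root a, k * x * k⁻¹ = y :=
    fun x hx y hy hx1 hy1 => by
      obtain ⟨k, hk, e⟩ := Z.root_trans (hne x hx hx1) (hne y hy hy1)
      exact ⟨k, hk, (conj_eq_of_regular (hNr a) (Z.root_fix hk) hx hy).mp e⟩
  obtain ⟨hq, hF⟩ := exists_field_coord.{0} hcomm (fun x hx y hy =>
    congrArg Subtype.val (mul_comm' (⟨x, hx⟩ : Z.root a) ⟨y, hy⟩)) hn hN1 (fun W hW hWn =>
      or_iff_not_imp_left.mpr fun hW1 => le_antisymm hW fun y hy => by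
        obtain ⟨x, hx, hx1⟩ := (Subgroup.bot_or_exists_ne_one W).resolve_left hW1
        by_cases hy1 : y = 1
        · exact hy1 ▸ W.one_mem
        · obtain ⟨k, hk, rfl⟩ := htr x (hW hx) y hy hx1 hy1
          exact hWn k hk x hx)
  obtain ⟨F, _, _, hFc⟩ := exists_field_of_isPrimePow hq
  obtain ⟨φ, hφ1, hφ2, hφ3, hφ4, hφ5⟩ := hF F (Nat.card_eq_fintype_card.trans hFc)
  have hφ0 : φ 0 = 1 := left_eq_mul.mp ((congrArg φ (add_zero 0)).symm.trans (hφ4 0 0))
  obtain ⟨c, rfl⟩ := hφ3 v hv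
  have hc : c ≠ 0 := by rintro rfl; exact hv1 hφ0
  have hex : ∀ x : F, ∃ y : F, φ (y * c) = h * φ (x * c) * h⁻¹ := fun x => by
    obtain ⟨y, hy⟩ := hφ3 _ (hN.conj_mem _ (hφ2 (x * c)) h)
    exact ⟨y / c, by rw [div_mul_cancel₀ y hc, hy]⟩
  choose σ hσ using hex
  have hinj : ∀ x y, φ (x * c) = φ (y * c) → x = y := fun x y e => mul_right_cancel₀ hc (hφ1 e)
  have hσ0 : σ 0 = 0 := hinj _ _ (by rw [hσ, zero_mul, hφ0]; group)
  have hσ1 : σ 1 = 1 := hinj _ _ (by rw [hσ, one_mul, hhv])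
  let τ : F →+* F :=
    { toFun := σ
      map_zero' := hσ0
      map_one' := hσ1
      map_add' := fun x y => hinj _ _ (by rw [hσ, add_mul, add_mul, hφ4, hφ4, hσ, hσ]; group)
      map_mul' := fun s x => by
        by_cases hs : s = 0
        · rw [hs, zero_mul, hσ0, zero_mul]
        obtain ⟨k, hk, e⟩ := htr _ hv _ (hφ2 (s * c)) hv1
          (fun e => mul_ne_zero hs hc (hφ1 (e.trans hφ0.symm)))
        obtain ⟨t, ht⟩ := hφ5 k hk
        obtain rfl : t = s := hinj _ _ ((ht c).symm.trans e)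
        obtain ⟨t', ht'⟩ := hφ5 _ (Z.conj_mem_root_of_fix hk ha)
        have key : ∀ y, σ (t * y) = t' * σ y := fun y => hinj _ _ (by
          rw [hσ, mul_assoc t, mul_assoc t', ← ht, ← ht', hσ]; group)
        have := key 1
        rw [mul_one, hσ1, mul_one] at this
        rw [key, this] }
  let ρ : F ≃+* F := RingEquiv.ofBijective τ (Finite.injective_iff_bijective.mp τ.injective)
  have hρ : ∀ (n : ℕ) (x : F), φ ((ρ ^ n) x * c) = h ^ n * φ (x * c) * (h ^ n)⁻¹ := fun n x => by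
    induction n with
    | zero => simp
    | succ n ih =>
      rw [pow_succ', RingAut.mul_apply, show ρ ((ρ ^ n) x) = σ ((ρ ^ n) x) from rfl, hσ, ih]
      group
  have : Fact (orderOf h).Prime := ⟨hr⟩
  rw [← hNc, ← hFc, ← Nat.card_eq_fintype_card, card_eq_two_pow_of_ringEquiv ρ (fun x hx => by
    refine (hfix _ (hφ2 (x * c)) ((hσ x).symm.trans (by rw [show σ x = x from hx]))).imp
      (fun e => hinj _ _ (by rw [e, zero_mul, hφ0])) (fun e => hinj _ _ (by rw [e, one_mul])))]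
  congr 1
  refine orderOf_eq_prime (RingEquiv.ext fun x => hinj _ _ (by
    rw [hρ, pow_orderOf_eq_one]; simp)) fun h0 => h1 ?_
  refine eq_one_of_commute_transitive (N := N) ha fun x hx => ?_
  obtain ⟨y, rfl⟩ := hφ3 x hx
  have := hρ 1 (y / c)
  rw [h0, one_pow, pow_one, RingAut.one_apply, div_mul_cancel₀ y hc] at this
  exact (mul_inv_eq_iff_eq_mul.mp this.symm)

end Cfsg.Agent.H3
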